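import Cfsg.Agent.H0.EON.D
set_option maxRecDepth 100000
set_option Elab.async false
set_option linter.unusedSectionVars false
namespace H0.EON
open H0 BN 
theorem c0 : pairsB R [222, 1, 0] ((((H0.ML37.B.map (sh 16)).map fun r => (r, ([] : List ℕ))).drop 0).take 17) = true := by decide +kernel
theorem c1 : pairsB R [222, 1, 0] ((((H0.ML37.B.map (sh 16)).map fun r => (r, ([] : List ℕ))).drop 17).take 5) = true := by decide +kernel
theorem c2 : pairsB R [222, 1, 0] ((((H0.ML37.B.map (sh 16)).map fun r => (r, ([] : List ℕ))).drop 22).take 8) = true := by decide +kernel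
theorem c3 : pairsB R [222, 1, 0] ((((H0.ML37.B.map (sh 16)).map fun r => (r, ([] : List ℕ))).drop 30).take 9) = true := by decide +kernel
theorem c4 : pairsB R [222, 1, 0] ((((H0.ML37.B.map (sh 16)).map fun r => (r, ([] : List ℕ))).drop 39).take 7) = true := by decide +kernel
theorem c5 : pairsB R [222, 1, 0] ((((H0.ML37.B.map (sh 16)).map fun r => (r, ([] : List ℕ))).drop 46).take 7) = true := by decide +kernel
theorem c6 : pairsB R [222, 1, 0] ((((H0.ML37.B.map (sh 16)).map fun r => (r, ([] : List ℕ))).drop 53).take 7) = true := by decide +kernel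
theorem c7 : pairsB R [222, 1, 0] ((((H0.ML37.B.map (sh 16)).map fun r => (r, ([] : List ℕ))).drop 60).take 6) = true := by decide +kernel
end H0.EON
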