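import Cfsg.Agent.H0.EON.D
set_option maxRecDepth 100000
set_option Elab.async false
set_option linter.unusedSectionVars false
namespace H0.EON
open H0 BN 
theorem c8 : pairsB R [222, 1, 0] ((((H0.ML37.B.map (sh 16)).map fun r => (r, ([] : List ℕ))).drop 66).take 1) = true := by decide +kernel
theorem c9 : neB R [16] [] 1 9264 1 = true := by decide +kernel
theorem c10 : Model.fixP R [0] ((lets 12).map (sh 16)) = true := by decide +kernel
theorem c11 : pairsB R [222, 1, 0] ((((H0.MJ1.B.map (sh 28)).map fun r => (r, ([] : List ℕ))).drop 0).take 14) = true := by decide +kernel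
theorem c12 : pairsB R [222, 1, 0] ((((H0.MJ1.B.map (sh 28)).map fun r => (r, ([] : List ℕ))).drop 14).take 9) = true := by decide +kernel
theorem c13 : pairsB R [222, 1, 0] ((((H0.MJ1.B.map (sh 28)).map fun r => (r, ([] : List ℕ))).drop 23).take 4) = true := by decide +kernel
theorem c14 : pairsB R [222, 1, 0] ((((H0.MJ1.B.map (sh 28)).map fun r => (r, ([] : List ℕ))).drop 27).take 5) = true := by decide +kernel
theorem c15 : pairsB R [222, 1, 0] ((((H0.MJ1.B.map (sh 28)).map fun r => (r, ([] : List ℕ))).drop 32).take 7) = true := by decide +kernel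
theorem c16 : pairsB R [222, 1, 0] ((((H0.MJ1.B.map (sh 28)).map fun r => (r, ([] : List ℕ))).drop 39).take 6) = true := by decide +kernel
theorem c17 : pairsB R [222, 1, 0] ((((H0.MJ1.B.map (sh 28)).map fun r => (r, ([] : List ℕ))).drop 45).take 6) = true := by decide +kernel
theorem c18 : pairsB R [222, 1, 0] ((((H0.MJ1.B.map (sh 28)).map fun r => (r, ([] : List ℕ))).drop 51).take 6) = true := by decide +kernel
end H0.EON
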